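import Mathlib

set_option autoImplicit false

/-! Binary words on a finite index type: supports, weights, dot products. -/

namespace Cfsg.Agent.Helper29.GU

variable {ι : Type*} [Fintype ι] [DecidableEq ι]

theorem z2 : ∀ x : ZMod 2, x = 0 ∨ x = 1 := by decide

theorem z2_ne : ∀ x : ZMod 2, x ≠ 0 → x = 1 := by decide

/-- support -/
def supp (u : ι → ZMod 2) : Finset ι := Finset.univ.filter (fun i => u i ≠ 0)

omit [DecidableEq ι] in
theorem mem_supp {u : ι → ZMod 2} {i : ι} : i ∈ supp u ↔ u i ≠ 0 := by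
  simp [supp]

omit [DecidableEq ι] in
theorem wt_eq (u : ι → ZMod 2) : hammingNorm u = (supp u).card := rfl

/-- indicator word -/
def ind (D : Finset ι) : ι → ZMod 2 := fun i => if i ∈ D then 1 else 0

theorem supp_ind (D : Finset ι) : supp (ind D) = D := by
  ext i
  rw [mem_supp, ind]
  by_cases h : i ∈ D <;> simp [h]

theorem ind_supp (u : ι → ZMod 2) : ind (supp u) = u := by
  funext i
  rw [ind]
  by_cases h : i ∈ supp u
  · rw [if_pos h]
    exact (z2_ne _ (mem_supp.1 h)).symm
  · rw [if_neg h]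
    rw [mem_supp, not_not] at h
    exact h.symm

theorem wt_ind (D : Finset ι) : hammingNorm (ind D) = D.card := by
  rw [wt_eq, supp_ind]

theorem z2_add_ne : ∀ a b : ZMod 2, a + b ≠ 0 ↔ ((a ≠ 0 ∧ ¬ b ≠ 0) ∨ (b ≠ 0 ∧ ¬ a ≠ 0)) := by
  decide

omit [DecidableEq ι] in
theorem supp_add [DecidableEq ι] (u u' : ι → ZMod 2) :
    supp (u + u') = (supp u \ supp u') ∪ (supp u' \ supp u) := by
  ext i
  simp only [mem_supp, Finset.mem_union, Finset.mem_sdiff, Pi.add_apply]
  exact z2_add_ne _ _

theorem wt_add (u u' : ι → ZMod 2) :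
    hammingNorm (u + u') + 2 * (supp u ∩ supp u').card = hammingNorm u + hammingNorm u' := by
  rw [wt_eq, wt_eq, wt_eq, supp_add]
  have hd : Disjoint (supp u \ supp u') (supp u' \ supp u) := by
    rw [Finset.disjoint_left]
    intro i h1 h2
    exact (Finset.mem_sdiff.1 h1).2 (Finset.mem_sdiff.1 h2).1
  rw [Finset.card_union_of_disjoint hd]
  have h1 := Finset.card_sdiff_add_card_inter (supp u) (supp u')
  have h2 := Finset.card_sdiff_add_card_inter (supp u') (supp u)
  rw [Finset.inter_comm (supp u') (supp u)] at h2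
  omega

theorem z2_mul : ∀ a b : ZMod 2, a * b = if (a ≠ 0 ∧ b ≠ 0) then 1 else 0 := by decide

theorem dot_eq (u u' : ι → ZMod 2) :
    ∑ i, u i * u' i = ((supp u ∩ supp u').card : ZMod 2) := by
  rw [Finset.card_eq_sum_ones, Nat.cast_sum, ← Finset.sum_filter_add_sum_filter_not
    Finset.univ (fun i => i ∈ supp u ∩ supp u')]
  have h1 : ∑ i ∈ Finset.univ.filter (fun i => i ∈ supp u ∩ supp u'), u i * u' i
      = ∑ i ∈ supp u ∩ supp u', ((1 : ℕ) : ZMod 2) := by
    have e : Finset.univ.filter (fun i => i ∈ supp u ∩ supp u') = supp u ∩ supp u' := by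
      ext i
      simp
    rw [e]
    apply Finset.sum_congr rfl
    intro i hi
    rw [Finset.mem_inter, mem_supp, mem_supp] at hi
    rw [z2_mul, if_pos hi]
    simp
  have h2 : ∑ i ∈ Finset.univ.filter (fun i => ¬ i ∈ supp u ∩ supp u'), u i * u' i = 0 := by
    apply Finset.sum_eq_zero
    intro i hi
    rw [Finset.mem_filter, Finset.mem_inter, mem_supp, mem_supp] at hi
    rw [z2_mul, if_neg hi.2]
  rw [h1, h2, add_zero]

omit [DecidableEq ι] in
theorem sum_eq (u : ι → ZMod 2) : ∑ i, u i = (hammingNorm u : ZMod 2) := by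
  classical
  have h := dot_eq u u
  rw [Finset.inter_self] at h
  rw [wt_eq, ← h]
  apply Finset.sum_congr rfl
  intro i _
  rcases z2 (u i) with h0 | h0 <;> rw [h0] <;> rfl

omit [DecidableEq ι] in
theorem wt_elim {κ : Type*} [Fintype κ] (u : ι → ZMod 2) (v : κ → ZMod 2) :
    hammingNorm (Sum.elim u v) = hammingNorm u + hammingNorm v := by
  classical
  rw [wt_eq, wt_eq, wt_eq]
  have e : supp (Sum.elim u v) = (supp u).disjSum (supp v) := by
    ext i
    rcases i with i | i <;> simp [mem_supp]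
  rw [e, Finset.card_disjSum]

omit [DecidableEq ι] in
theorem wt_le (u : ι → ZMod 2) : hammingNorm u ≤ Fintype.card ι := by
  rw [wt_eq, ← Finset.card_univ]
  exact Finset.card_le_card (Finset.subset_univ _)

omit [DecidableEq ι] in
theorem eq_one_of_wt (u : ι → ZMod 2) (h : hammingNorm u = Fintype.card ι) : u = 1 := by
  rw [wt_eq, ← Finset.card_univ] at h
  have h1 := Finset.eq_of_subset_of_card_le (Finset.subset_univ (supp u)) (by rw [h])
  funext i
  have : i ∈ supp u := by
    rw [h1]
    exact Finset.mem_univ i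
  exact z2_ne _ (mem_supp.1 this)

omit [DecidableEq ι] in
theorem wt_add_one (u : ι → ZMod 2) :
    hammingNorm (u + 1) + hammingNorm u = Fintype.card ι := by
  classical
  have h := wt_add u 1
  have h1 : supp (1 : ι → ZMod 2) = Finset.univ := by
    ext i
    simp [mem_supp]
  have h2 : hammingNorm (1 : ι → ZMod 2) = Fintype.card ι := by
    rw [wt_eq, h1, Finset.card_univ]
  rw [h1, Finset.inter_univ, h2, ← wt_eq] at h
  omega

/-- the dot product as a bilinear form -/
noncomputable def dotB (ι : Type*) [Fintype ι] [DecidableEq ι] :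
    LinearMap.BilinForm (ZMod 2) (ι → ZMod 2) :=
  Matrix.toBilin' (1 : Matrix ι ι (ZMod 2))

theorem dotB_apply (v w : ι → ZMod 2) : dotB ι v w = ∑ p, v p * w p := by
  unfold dotB
  rw [Matrix.toBilin'_apply']
  simp [dotProduct]

theorem dotB_nondeg : (dotB ι).Nondegenerate := by
  unfold dotB
  apply LinearMap.BilinForm.nondegenerate_toBilin'_of_det_ne_zero'
  simp

theorem dotB_refl : (dotB ι).IsRefl := by
  intro v w h
  rw [dotB_apply] at h ⊢
  rw [← h]
  exact Finset.sum_congr rfl (fun p _ => mul_comm _ _)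

theorem mem_orth {W : Submodule (ZMod 2) (ι → ZMod 2)} {v : ι → ZMod 2} :
    v ∈ (dotB ι).orthogonal W ↔ ∀ w ∈ W, ∑ p, w p * v p = 0 := by
  rw [LinearMap.BilinForm.mem_orthogonal_iff]
  constructor
  · intro h w hw
    have := h w hw
    rwa [dotB_apply] at this
  · intro h w hw
    rw [dotB_apply]
    exact h w hw

theorem finrank_orth (W : Submodule (ZMod 2) (ι → ZMod 2)) :
    Module.finrank (ZMod 2) ((dotB ι).orthogonal W) = Fintype.card ι - Module.finrank (ZMod 2) W := by
  rw [LinearMap.BilinForm.finrank_orthogonal dotB_nondeg]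
  simp

omit [Fintype ι] [DecidableEq ι] in
theorem add_self' (u : ι → ZMod 2) : u + u = 0 := by
  funext i
  exact CharTwo.add_self_eq_zero _

theorem sum_mul_ind (f : ι → ZMod 2) (D : Finset ι) : ∑ i, f i * ind D i = ∑ i ∈ D, f i := by
  simp only [ind, mul_ite, mul_one, mul_zero]
  rw [Finset.sum_ite_mem, Finset.univ_inter]

omit [DecidableEq ι] in
theorem wt_comp {κ : Type*} [Fintype κ] (g : κ ≃ ι) (v : ι → ZMod 2) :
    hammingNorm (v ∘ g) = hammingNorm v := by
  rw [wt_eq, wt_eq]
  apply Finset.card_bij (fun i _ => g i)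
  · intro i hi
    rw [mem_supp] at hi ⊢
    exact hi
  · intro i _ j _ h
    exact g.injective h
  · intro j hj
    refine ⟨g.symm j, ?_, g.apply_symm_apply j⟩
    rw [mem_supp] at hj ⊢
    simpa using hj

omit [Fintype ι] in
theorem ind_comp {κ : Type*} [DecidableEq κ] (σ : ι ≃ κ) (D : Finset ι) :
    ind D ∘ σ.symm = ind (D.map σ.toEmbedding) := by
  funext j
  simp only [Function.comp_apply, ind, Finset.mem_map_equiv]

omit [DecidableEq ι] in
theorem wt_pos_ne {u : ι → ZMod 2} (h : 0 < hammingNorm u) : u ≠ 0 := by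
  intro e
  rw [e, hammingNorm_zero] at h
  exact lt_irrefl _ h

end Cfsg.Agent.Helper29.GU
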