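import Mathlib
import Cfsg.Agent.Helper29.GU.Basic

set_option autoImplicit false

/-! A doubly even self-dual code of length 24 and minimum weight 8, split along an octad. -/

namespace Cfsg.Agent.Helper29.GU

abbrev W8 := Fin 8 → ZMod 2
abbrev W16 := Fin 16 → ZMod 2
abbrev W24 := Fin 8 ⊕ Fin 16 → ZMod 2

/-- juxtaposition -/
abbrev J (u : W8) (v : W16) : W24 := Sum.elim u v

theorem J_add (u u' : W8) (v v' : W16) : J (u + u') (v + v') = J u v + J u' v' := by
  funext i
  cases i <;> rfl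

theorem J_zero : J 0 0 = 0 := by
  funext i
  cases i <;> rfl

theorem J_dot (u u' : W8) (v v' : W16) :
    ∑ i, J u v i * J u' v' i = ∑ i, u i * u' i + ∑ i, v i * v' i := by
  rw [Fintype.sum_sum_type]
  rfl

theorem J_eq (c : W24) : J (c ∘ Sum.inl) (c ∘ Sum.inr) = c := Sum.elim_comp_inl_inr c

theorem J_inj {u u' : W8} {v v' : W16} (h : J u v = J u' v') : u = u' ∧ v = v' := by
  constructor
  · funext i
    exact congrFun h (Sum.inl i)
  · funext i
    exact congrFun h (Sum.inr i)

structure Gol (C : Submodule (ZMod 2) W24) : Prop where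
  dim : Module.finrank (ZMod 2) C = 12
  orth : ∀ c ∈ C, ∀ c' ∈ C, ∑ i, c i * c' i = 0
  four : ∀ c ∈ C, 4 ∣ hammingNorm c
  min : ∀ c ∈ C, c ≠ 0 → 8 ≤ hammingNorm c
  oct : J 1 0 ∈ C
  all : J 0 1 ∈ C

/-- words of `C` supported on the 16 points -/
def CR (C : Submodule (ZMod 2) W24) : Submodule (ZMod 2) W16 where
  carrier := {v | J 0 v ∈ C}
  add_mem' := by
    intro v v' hv hv'
    show J 0 (v + v') ∈ C
    have := C.add_mem hv hv'
    rwa [← J_add, add_zero] at this
  zero_mem' := by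
    show J 0 0 ∈ C
    rw [J_zero]
    exact C.zero_mem
  smul_mem' := by
    intro r v hv
    show J 0 (r • v) ∈ C
    rcases z2 r with h | h
    · rw [h, zero_smul, J_zero]
      exact C.zero_mem
    · rw [h, one_smul]
      exact hv

theorem mem_CR {C : Submodule (ZMod 2) W24} {v : W16} : v ∈ CR C ↔ J 0 v ∈ C := Iff.rfl

theorem even_left {C : Submodule (ZMod 2) W24} (h : Gol C) {u : W8} {v : W16}
    (hc : J u v ∈ C) : ∑ i, u i = 0 := by
  have h1 := h.orth _ hc _ h.oct
  rw [J_dot] at h1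
  simpa using h1

theorem perp_right {C : Submodule (ZMod 2) W24} (h : Gol C) {u : W8} {v f : W16}
    (hc : J u v ∈ C) (hf : f ∈ CR C) : ∑ i, f i * v i = 0 := by
  have h1 := h.orth _ hf _ hc
  rw [J_dot] at h1
  simpa using h1

theorem left_cases {C : Submodule (ZMod 2) W24} (h : Gol C) {u : W8} (hc : J u 0 ∈ C) :
    u = 0 ∨ u = 1 := by
  by_cases h0 : u = 0
  · exact Or.inl h0
  · right
    have hne : J u 0 ≠ 0 := by
      intro e
      apply h0
      funext i
      exact congrFun e (Sum.inl i)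
    have h8 := h.min _ hc hne
    rw [wt_elim, hammingNorm_zero, add_zero] at h8
    have hle := wt_le u
    rw [Fintype.card_fin] at hle
    exact eq_one_of_wt u (by rw [Fintype.card_fin]; omega)

theorem step1 {C : Submodule (ZMod 2) W24} (h : Gol C) :
    Module.finrank (ZMod 2) (CR C) = 5 ∧ (∀ u : W8, ∑ i, u i = 0 → ∃ v, J u v ∈ C) ∧
      (∀ v : W16, (∀ f ∈ CR C, ∑ i, f i * v i = 0) → ∃ u, J u v ∈ C) := by
  set πC : C →ₗ[ZMod 2] W8 :=
    (LinearMap.funLeft (ZMod 2) (ZMod 2) Sum.inl).comp C.subtype with hπC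
  set ρC : C →ₗ[ZMod 2] W16 :=
    (LinearMap.funLeft (ZMod 2) (ZMod 2) Sum.inr).comp C.subtype with hρC
  have hπa : ∀ c : C, πC c = (c : W24) ∘ Sum.inl := fun c => rfl
  have hρa : ∀ c : C, ρC c = (c : W24) ∘ Sum.inr := fun c => rfl
  set sumL : W8 →ₗ[ZMod 2] ZMod 2 := ∑ i, LinearMap.proj i with hsumL
  have hsum : ∀ u : W8, sumL u = ∑ i, u i := by
    intro u
    rw [hsumL, LinearMap.sum_apply]
    rfl
  have hπ_le : LinearMap.range πC ≤ LinearMap.ker sumL := by
    rintro _ ⟨c, rfl⟩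
    rw [LinearMap.mem_ker, hsum, hπa]
    have hc : J ((c : W24) ∘ Sum.inl) ((c : W24) ∘ Sum.inr) ∈ C := by
      rw [J_eq]
      exact c.2
    exact even_left h hc
  have hE7 : Module.finrank (ZMod 2) (LinearMap.ker sumL) ≤ 7 := by
    have hlt : LinearMap.ker sumL ≠ ⊤ := by
      intro e
      have : (Pi.single 0 1 : W8) ∈ LinearMap.ker sumL := by
        rw [e]
        exact Submodule.mem_top
      rw [LinearMap.mem_ker, hsum] at this
      simp at this
    have := Submodule.finrank_lt hlt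
    have h8 : Module.finrank (ZMod 2) W8 = 8 := by simp
    omega
  have hkπ : Module.finrank (ZMod 2) (LinearMap.ker πC) ≤ Module.finrank (ZMod 2) (CR C) := by
    have hmem : ∀ c : LinearMap.ker πC, ρC c.1 ∈ CR C := by
      intro c
      have h0 : πC c.1 = 0 := LinearMap.mem_ker.1 c.2
      rw [mem_CR, hρa, ← h0, hπa, J_eq]
      exact c.1.2
    apply LinearMap.finrank_le_finrank_of_injective
      (f := LinearMap.codRestrict (CR C) (ρC.comp (LinearMap.ker πC).subtype) hmem)
    rw [injective_iff_map_eq_zero]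
    intro c hc
    have h0 : πC c.1 = 0 := LinearMap.mem_ker.1 c.2
    have h1 : ρC c.1 = 0 := congrArg Subtype.val hc
    apply Subtype.ext
    apply Subtype.ext
    have := J_eq (c.1 : W24)
    rw [hπa] at h0
    rw [hρa] at h1
    rw [h0, h1, J_zero] at this
    exact this.symm
  have hρ_le : LinearMap.range ρC ≤ (dotB (Fin 16)).orthogonal (CR C) := by
    rintro _ ⟨c, rfl⟩
    rw [mem_orth]
    intro f hf
    have hc : J ((c : W24) ∘ Sum.inl) ((c : W24) ∘ Sum.inr) ∈ C := by
      rw [J_eq]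
      exact c.2
    exact perp_right h hc hf
  have hkρ : Module.finrank (ZMod 2) (LinearMap.ker ρC) ≤ 1 := by
    have h1 : Module.finrank (ZMod 2) (ZMod 2) = 1 := Module.finrank_self _
    rw [← h1]
    apply LinearMap.finrank_le_finrank_of_injective
      (f := (LinearMap.proj (Sum.inl 0)).comp (C.subtype.comp (LinearMap.ker ρC).subtype))
    rw [injective_iff_map_eq_zero]
    intro c hc
    have h0 : ρC c.1 = 0 := LinearMap.mem_ker.1 c.2
    rw [hρa] at h0
    have hJ := J_eq (c.1 : W24)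
    rw [h0] at hJ
    have hmem : J ((c.1 : W24) ∘ Sum.inl) 0 ∈ C := by
      rw [hJ]
      exact c.1.2
    have hval : (c.1 : W24) (Sum.inl 0) = 0 := hc
    apply Subtype.ext
    apply Subtype.ext
    rcases left_cases h hmem with e | e
    · rw [e, J_zero] at hJ
      exact hJ.symm
    · exfalso
      have : ((c.1 : W24) ∘ Sum.inl) 0 = 1 := by rw [e]; rfl
      rw [Function.comp_apply, hval] at this
      exact zero_ne_one this
  have h1 := LinearMap.finrank_range_add_finrank_ker πC
  have h2 := LinearMap.finrank_range_add_finrank_ker ρC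
  have h3 : Module.finrank (ZMod 2) ((dotB (Fin 16)).orthogonal (CR C))
      = 16 - Module.finrank (ZMod 2) (CR C) := by
    have := finrank_orth (CR C)
    rw [Fintype.card_fin] at this
    exact this
  have hCR16 : Module.finrank (ZMod 2) (CR C) ≤ 16 := by
    have := Submodule.finrank_le (CR C)
    have h16 : Module.finrank (ZMod 2) W16 = 16 := by simp
    omega
  have m1 := Submodule.finrank_mono hπ_le
  have m2 := Submodule.finrank_mono hρ_le
  rw [h.dim] at h1 h2
  have key : ∀ (a f b c e k1 k2 : ℕ), b + k1 = 12 → c + k2 = 12 → k2 ≤ 1 → k1 ≤ f →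
      e = 16 - f → b ≤ a → c ≤ e → a ≤ 7 → f ≤ 16 → f = 5 ∧ a ≤ b ∧ e ≤ c := by
    intros
    omega
  obtain ⟨e5, ea, ee⟩ := key _ _ _ _ _ _ _ h1 h2 hkρ hkπ h3 m1 m2 hE7 hCR16
  have eπ : LinearMap.range πC = LinearMap.ker sumL :=
    Submodule.eq_of_le_of_finrank_le hπ_le ea
  have eρ : LinearMap.range ρC = (dotB (Fin 16)).orthogonal (CR C) :=
    Submodule.eq_of_le_of_finrank_le hρ_le ee
  refine ⟨e5, ?_, ?_⟩
  · intro u hu
    have : u ∈ LinearMap.range πC := by
      rw [eπ, LinearMap.mem_ker, hsum]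
      exact hu
    obtain ⟨c, rfl⟩ := this
    refine ⟨(c : W24) ∘ Sum.inr, ?_⟩
    rw [hπa, J_eq]
    exact c.2
  · intro v hv
    have : v ∈ LinearMap.range ρC := by
      rw [eρ, mem_orth]
      exact hv
    obtain ⟨c, rfl⟩ := this
    refine ⟨(c : W24) ∘ Sum.inl, ?_⟩
    rw [hρa, J_eq]
    exact c.2

end Cfsg.Agent.Helper29.GU
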