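import Mathlib
import Cfsg.Agent.Helper29.GU.Glue

set_option autoImplicit false

/-! Five-dimensional codes on 16 points containing the all-ones word and separating points. -/

namespace Cfsg.Agent.Helper29.GU

structure RM (D : Submodule (ZMod 2) W16) : Prop where
  dim : Module.finrank (ZMod 2) D = 5
  one : (1 : W16) ∈ D
  sep : ∀ x y : Fin 16, x ≠ y → ∃ f ∈ D, f x ≠ f y

theorem J_one_zero_add {C : Submodule (ZMod 2) W24} (h : Gol C) {u : W8} {v : W16}
    (hc : J u v ∈ C) : J (u + 1) v ∈ C := by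
  have := C.add_mem hc h.oct
  rwa [← J_add, add_zero] at this

theorem rm_of_gol {C : Submodule (ZMod 2) W24} (h : Gol C) : RM (CR C) := by
  obtain ⟨h5, -, hP2⟩ := step1 h
  refine ⟨h5, h.all, ?_⟩
  intro x y hxy
  by_contra hcon
  push_neg at hcon
  have hperp : ∀ f ∈ CR C, ∑ i, f i * ind {x, y} i = 0 := by
    intro f hf
    rw [sum_mul_ind, Finset.sum_pair hxy, hcon f hf]
    exact CharTwo.add_self_eq_zero _
  obtain ⟨u, hu⟩ := hP2 _ hperp
  have hwv : hammingNorm (ind ({x, y} : Finset (Fin 16))) = 2 := by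
    rw [wt_ind, Finset.card_pair hxy]
  have h4 := h.four _ hu
  rw [wt_elim, hwv] at h4
  have hne : J u (ind {x, y}) ≠ 0 := by
    apply wt_pos_ne
    rw [wt_elim, hwv]
    omega
  have h8 := h.min _ hu hne
  rw [wt_elim, hwv] at h8
  have hle := wt_le u
  rw [Fintype.card_fin] at hle
  have h6 : hammingNorm u = 6 := by omega
  have hu' := J_one_zero_add h hu
  have h1 := wt_add_one u
  rw [Fintype.card_fin] at h1
  have hne' : J (u + 1) (ind {x, y}) ≠ 0 := by
    apply wt_pos_ne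
    rw [wt_elim, hwv]
    omega
  have h8' := h.min _ hu' hne'
  rw [wt_elim, hwv] at h8'
  omega

/-- the functions of `D` vanishing at the point 0 -/
def K0 (D : Submodule (ZMod 2) W16) : Submodule (ZMod 2) W16 :=
  D ⊓ LinearMap.ker (LinearMap.proj 0 : W16 →ₗ[ZMod 2] ZMod 2)

theorem mem_K0 {D : Submodule (ZMod 2) W16} {f : W16} : f ∈ K0 D ↔ f ∈ D ∧ f 0 = 0 := by
  rw [K0, Submodule.mem_inf, LinearMap.mem_ker]
  rfl

theorem K0_decomp {D : Submodule (ZMod 2) W16} (h : RM D) {f : W16} (hf : f ∈ D) :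
    f + f 0 • 1 ∈ K0 D := by
  rw [mem_K0]
  refine ⟨D.add_mem hf (D.smul_mem _ h.one), ?_⟩
  show f 0 + f 0 * 1 = 0
  rw [mul_one]
  exact CharTwo.add_self_eq_zero _

theorem finrank_K0 {D : Submodule (ZMod 2) W16} (h : RM D) :
    Module.finrank (ZMod 2) (K0 D) = 4 := by
  have h1 : K0 D ⊔ Submodule.span (ZMod 2) {(1 : W16)} = D := by
    apply le_antisymm
    · apply sup_le inf_le_left
      rw [Submodule.span_singleton_le_iff_mem]
      exact h.one
    · intro f hf
      rw [Submodule.mem_sup]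
      refine ⟨f + f 0 • 1, K0_decomp h hf, f 0 • 1,
        Submodule.smul_mem _ _ (Submodule.mem_span_singleton_self _), ?_⟩
      rw [add_assoc, add_self', add_zero]
  have h2 : K0 D ⊓ Submodule.span (ZMod 2) {(1 : W16)} = ⊥ := by
    rw [eq_bot_iff]
    intro f hf
    rw [Submodule.mem_inf, mem_K0, Submodule.mem_span_singleton] at hf
    obtain ⟨⟨_, h0⟩, a, rfl⟩ := hf
    have ha : a = 0 := by
      have : a * 1 = 0 := h0
      rwa [mul_one] at this
    rw [ha, zero_smul]
    exact Submodule.zero_mem _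
  have h3 := Submodule.finrank_sup_add_finrank_inf_eq (K0 D)
    (Submodule.span (ZMod 2) {(1 : W16)})
  have hne : (1 : W16) ≠ 0 := by
    intro e
    have := congrFun e 0
    exact one_ne_zero this
  rw [h1, h2, h.dim, finrank_bot, finrank_span_singleton hne] at h3
  omega

theorem rm_coords {D : Submodule (ZMod 2) W16} (h : RM D)
    (b : Module.Basis (Fin 4) (ZMod 2) (K0 D)) {f : W16} (hf : f ∈ D) :
    ∃ (c : Fin 4 → ZMod 2) (a : ZMod 2), f = ∑ j, c j • (b j : W16) + a • 1 := by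
  have hk := K0_decomp h hf
  have hs := b.sum_repr ⟨_, hk⟩
  refine ⟨fun j => b.repr ⟨_, hk⟩ j, f 0, ?_⟩
  have h2 := congrArg Subtype.val hs
  rw [Submodule.coe_sum] at h2
  simp only [Submodule.coe_smul] at h2
  rw [h2, add_assoc, add_self', add_zero]

theorem rm_phi_inj {D : Submodule (ZMod 2) W16} (h : RM D)
    (b : Module.Basis (Fin 4) (ZMod 2) (K0 D)) :
    Function.Injective (fun (x : Fin 16) (j : Fin 4) => (b j : W16) x) := by
  intro x y hxy
  by_contra hne
  obtain ⟨f, hf, hfxy⟩ := h.sep x y hne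
  obtain ⟨c, a, rfl⟩ := rm_coords h b hf
  apply hfxy
  simp only [Pi.add_apply, Finset.sum_apply, Pi.smul_apply, smul_eq_mul, Pi.one_apply]
  have : ∀ j, (b j : W16) x = (b j : W16) y := fun j => congrFun hxy j
  simp only [this]

theorem rm_half {D1 D2 : Submodule (ZMod 2) W16} (h1 : RM D1) (h2 : RM D2)
    (b1 : Module.Basis (Fin 4) (ZMod 2) (K0 D1)) (b2 : Module.Basis (Fin 4) (ZMod 2) (K0 D2))
    (g : Fin 16 → Fin 16) (hg : ∀ j x, (b2 j : W16) (g x) = (b1 j : W16) x)
    (f : W16) (hf : f ∈ D2) : f ∘ g ∈ D1 := by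
  obtain ⟨c, a, rfl⟩ := rm_coords h2 b2 hf
  have e : (∑ j, c j • (b2 j : W16) + a • 1) ∘ g = ∑ j, c j • (b1 j : W16) + a • 1 := by
    funext x
    simp only [Function.comp_apply, Pi.add_apply, Finset.sum_apply, Pi.smul_apply, smul_eq_mul,
      Pi.one_apply, hg]
  rw [e]
  apply D1.add_mem
  · apply D1.sum_mem
    intro j _
    apply D1.smul_mem
    exact (mem_K0.1 (b1 j).2).1
  · exact D1.smul_mem _ h1.one

theorem rm_unique {D1 D2 : Submodule (ZMod 2) W16} (h1 : RM D1) (h2 : RM D2) :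
    ∃ g : Fin 16 ≃ Fin 16, ∀ f : W16, f ∈ D2 ↔ f ∘ g ∈ D1 := by
  have b1 : Module.Basis (Fin 4) (ZMod 2) (K0 D1) := Module.finBasisOfFinrankEq _ _ (finrank_K0 h1)
  have b2 : Module.Basis (Fin 4) (ZMod 2) (K0 D2) := Module.finBasisOfFinrankEq _ _ (finrank_K0 h2)
  have hcard : Fintype.card (Fin 16) = Fintype.card (Fin 4 → ZMod 2) := by
    simp [ZMod.card]
  have bij1 := (Fintype.bijective_iff_injective_and_card _).2 ⟨rm_phi_inj h1 b1, hcard⟩
  have bij2 := (Fintype.bijective_iff_injective_and_card _).2 ⟨rm_phi_inj h2 b2, hcard⟩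
  set E1 := Equiv.ofBijective _ bij1 with hE1
  set E2 := Equiv.ofBijective _ bij2 with hE2
  have hg : ∀ j x, (b2 j : W16) ((E1.trans E2.symm) x) = (b1 j : W16) x := by
    intro j x
    have : E2 ((E1.trans E2.symm) x) = E1 x := by simp
    exact congrFun this j
  have hg' : ∀ j x, (b1 j : W16) ((E1.trans E2.symm).symm x) = (b2 j : W16) x := by
    intro j x
    have := hg j ((E1.trans E2.symm).symm x)
    rw [Equiv.apply_symm_apply] at this
    exact this.symm
  refine ⟨E1.trans E2.symm, fun f => ⟨rm_half h1 h2 b1 b2 _ hg f, ?_⟩⟩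
  intro hf
  have := rm_half h2 h1 b2 b1 _ hg' _ hf
  have e : (f ∘ (E1.trans E2.symm)) ∘ ((E1.trans E2.symm).symm) = f := by
    funext x
    simp
  rwa [e] at this

end Cfsg.Agent.Helper29.GU
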