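import Mathlib
import Cfsg.Agent.Helper29.GU.RM

set_option autoImplicit false

/-! Uniqueness of the doubly even self-dual [24,12,8] code, in the split form. -/

namespace Cfsg.Agent.Helper29.GU

/-- four 2-sets pairwise meeting in exactly one point have a common point -/
theorem star {α : Type*} [DecidableEq α] {A B X Y : Finset α}
    (hA : A.card = 2) (hB : B.card = 2) (hX : X.card = 2)
    (hAB : (A ∩ B).card = 1) (hAX : (A ∩ X).card = 1) (hBX : (B ∩ X).card = 1)
    (hAY : (A ∩ Y).card = 1) (hBY : (B ∩ Y).card = 1) (hXY : (X ∩ Y).card = 1)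
    {a : α} (ha : a ∈ A ∩ B) : a ∈ X := by
  by_contra haX
  obtain ⟨z, hz⟩ := Finset.card_eq_one.1 hAB
  have hza : a = z := by
    rw [hz] at ha
    exact Finset.mem_singleton.1 ha
  subst hza
  have F1 : ∀ t, t ∈ A → t ∈ B → t = a := by
    intro t h1 h2
    have : t ∈ A ∩ B := Finset.mem_inter.2 ⟨h1, h2⟩
    rw [hz] at this
    exact Finset.mem_singleton.1 this
  have haA : a ∈ A := (Finset.mem_inter.1 ha).1
  have haB : a ∈ B := (Finset.mem_inter.1 ha).2
  obtain ⟨b, hb⟩ := Finset.card_eq_one.1 hAX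
  obtain ⟨c, hc⟩ := Finset.card_eq_one.1 hBX
  have hbm : b ∈ A ∩ X := by rw [hb]; exact Finset.mem_singleton_self b
  have hcm : c ∈ B ∩ X := by rw [hc]; exact Finset.mem_singleton_self c
  rw [Finset.mem_inter] at hbm hcm
  have hba : b ≠ a := fun e => haX (e ▸ hbm.2)
  have hca : c ≠ a := fun e => haX (e ▸ hcm.2)
  have hbc : b ≠ c := by
    intro e
    apply hba
    exact F1 b hbm.1 (e ▸ hcm.1)
  have eX : ({b, c} : Finset α) = X := by
    apply Finset.eq_of_subset_of_card_le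
    · intro t ht
      rw [Finset.mem_insert, Finset.mem_singleton] at ht
      rcases ht with rfl | rfl
      · exact hbm.2
      · exact hcm.2
    · rw [hX, Finset.card_pair hbc]
  have eA : ({a, b} : Finset α) = A := by
    apply Finset.eq_of_subset_of_card_le
    · intro t ht
      rw [Finset.mem_insert, Finset.mem_singleton] at ht
      rcases ht with rfl | rfl
      · exact haA
      · exact hbm.1
    · rw [hA, Finset.card_pair (Ne.symm hba)]
  have eB : ({a, c} : Finset α) = B := by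
    apply Finset.eq_of_subset_of_card_le
    · intro t ht
      rw [Finset.mem_insert, Finset.mem_singleton] at ht
      rcases ht with rfl | rfl
      · exact haB
      · exact hcm.1
    · rw [hB, Finset.card_pair (Ne.symm hca)]
  obtain ⟨p, hp⟩ := Finset.card_eq_one.1 hAY
  obtain ⟨q, hq⟩ := Finset.card_eq_one.1 hBY
  obtain ⟨r, hr⟩ := Finset.card_eq_one.1 hXY
  have hpm : p ∈ A ∩ Y := by rw [hp]; exact Finset.mem_singleton_self p
  have hqm : q ∈ B ∩ Y := by rw [hq]; exact Finset.mem_singleton_self q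
  have hrm : r ∈ X ∩ Y := by rw [hr]; exact Finset.mem_singleton_self r
  rw [Finset.mem_inter] at hpm hqm hrm
  have GA : ∀ t, t ∈ A → t ∈ Y → t = p := by
    intro t h1 h2
    have : t ∈ A ∩ Y := Finset.mem_inter.2 ⟨h1, h2⟩
    rw [hp] at this
    exact Finset.mem_singleton.1 this
  have GB : ∀ t, t ∈ B → t ∈ Y → t = q := by
    intro t h1 h2
    have : t ∈ B ∩ Y := Finset.mem_inter.2 ⟨h1, h2⟩
    rw [hq] at this
    exact Finset.mem_singleton.1 this
  have GX : ∀ t, t ∈ X → t ∈ Y → t = r := by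
    intro t h1 h2
    have : t ∈ X ∩ Y := Finset.mem_inter.2 ⟨h1, h2⟩
    rw [hr] at this
    exact Finset.mem_singleton.1 this
  have hpA := hpm.1
  rw [← eA, Finset.mem_insert, Finset.mem_singleton] at hpA
  have hqB := hqm.1
  rw [← eB, Finset.mem_insert, Finset.mem_singleton] at hqB
  have hrX := hrm.1
  rw [← eX, Finset.mem_insert, Finset.mem_singleton] at hrX
  rcases hpA with e | e
  · -- a ∈ Y
    have haY : a ∈ Y := e ▸ hpm.2
    have hbY : b ∉ Y := fun hbY => hba ((GA b hbm.1 hbY).trans e)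
    have hqa : a = q := GB a haB haY
    have hcY : c ∉ Y := fun hcY => hca ((GB c hcm.1 hcY).trans hqa.symm)
    rcases hrX with e' | e'
    · exact hbY (e' ▸ hrm.2)
    · exact hcY (e' ▸ hrm.2)
  · -- b ∈ Y, a ∉ Y
    have hbY : b ∈ Y := e ▸ hpm.2
    have haY : a ∉ Y := fun haY => hba ((e.symm).trans (GA a haA haY).symm ▸ rfl)
    have hcY : c ∈ Y := by
      rcases hqB with e' | e'
      · exact absurd (e' ▸ hqm.2) haY
      · exact e' ▸ hqm.2
    exact hbc ((GX b hbm.2 hbY).trans (GX c hcm.2 hcY).symm)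

section core

variable {C1 C2 : Submodule (ZMod 2) W24}

/-- the correspondence between left parts -/
def Rel (C1 C2 : Submodule (ZMod 2) W24) (g : Fin 16 ≃ Fin 16) (u u' : W8) : Prop :=
  ∃ v : W16, J u v ∈ C1 ∧ J u' (v ∘ g.symm) ∈ C2

theorem rel_add {g : Fin 16 ≃ Fin 16} {u1 u1' u2 u2' : W8} (h1 : Rel C1 C2 g u1 u1')
    (h2 : Rel C1 C2 g u2 u2') : Rel C1 C2 g (u1 + u2) (u1' + u2') := by
  obtain ⟨v1, a1, b1⟩ := h1
  obtain ⟨v2, a2, b2⟩ := h2
  refine ⟨v1 + v2, ?_, ?_⟩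
  · rw [J_add]
    exact C1.add_mem a1 a2
  · have : (v1 + v2) ∘ g.symm = v1 ∘ g.symm + v2 ∘ g.symm := rfl
    rw [this, J_add]
    exact C2.add_mem b1 b2

theorem rel_zero {g : Fin 16 ≃ Fin 16} : Rel C1 C2 g 0 0 := by
  refine ⟨0, ?_, ?_⟩
  · rw [J_zero]
    exact C1.zero_mem
  · have : (0 : W16) ∘ g.symm = 0 := rfl
    rw [this, J_zero]
    exact C2.zero_mem

theorem exists_rel (h1 : Gol C1) (h2 : Gol C2) (g : Fin 16 ≃ Fin 16)
    (hg : ∀ f : W16, f ∈ CR C2 ↔ f ∘ g ∈ CR C1) (u : W8) (hu : ∑ i, u i = 0) :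
    ∃ u', Rel C1 C2 g u u' := by
  obtain ⟨-, hP1, -⟩ := step1 h1
  obtain ⟨-, -, hP2⟩ := step1 h2
  obtain ⟨v, hv⟩ := hP1 u hu
  have hperp : ∀ f ∈ CR C2, ∑ i, f i * (v ∘ g.symm) i = 0 := by
    intro f hf
    have hf' := (hg f).1 hf
    have h0 := perp_right h1 hv hf'
    rw [← h0, ← Equiv.sum_comp g]
    apply Finset.sum_congr rfl
    intro i _
    simp
  obtain ⟨u', hu'⟩ := hP2 _ hperp
  exact ⟨u', v, hv, hu'⟩

theorem rel_mem {g : Fin 16 ≃ Fin 16}
    (hg : ∀ f : W16, f ∈ CR C2 ↔ f ∘ g ∈ CR C1) {u u' : W8} (hr : Rel C1 C2 g u u')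
    {v : W16} (hv : J u v ∈ C1) : J u' (v ∘ g.symm) ∈ C2 := by
  obtain ⟨v', a, b⟩ := hr
  have h1 : J 0 (v + v') ∈ C1 := by
    have := C1.add_mem hv a
    rwa [← J_add, add_self'] at this
  have h2 : (v + v') ∘ g.symm ∈ CR C2 := by
    rw [hg]
    have e : ((v + v') ∘ g.symm) ∘ g = v + v' := by
      funext x
      simp
    rw [e]
    exact h1
  have h3 := C2.add_mem h2 b
  rw [← J_add, zero_add] at h3
  have e : (v + v') ∘ g.symm + v' ∘ g.symm = v ∘ g.symm := by
    have : (v + v') ∘ g.symm = v ∘ g.symm + v' ∘ g.symm := rfl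
    rw [this, add_assoc, add_self', add_zero]
  rwa [e] at h3

theorem rel_wt (h1 : Gol C1) (h2 : Gol C2) {g : Fin 16 ≃ Fin 16} {u u' : W8}
    (hr : Rel C1 C2 g u u') : hammingNorm u % 4 = hammingNorm u' % 4 := by
  obtain ⟨v, a, b⟩ := hr
  have ha := h1.four _ a
  have hb := h2.four _ b
  rw [wt_elim] at ha hb
  rw [wt_comp] at hb
  omega

theorem rel_one (h2 : Gol C2) {g : Fin 16 ≃ Fin 16} {u u' : W8}
    (hr : Rel C1 C2 g u u') : Rel C1 C2 g u (u' + 1) := by
  obtain ⟨v, a, b⟩ := hr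
  exact ⟨v, a, J_one_zero_add h2 b⟩

theorem pair_inter : ∀ x y : Fin 8, x ≠ 0 → y ≠ 0 → x ≠ y →
    (({0, x} : Finset (Fin 8)) ∩ {0, y}).card = 1 := by decide

theorem pair_card : ∀ x : Fin 8, x ≠ 0 → ({0, x} : Finset (Fin 8)).card = 2 := by decide

theorem exists_two (h1 : Gol C1) (h2 : Gol C2) (g : Fin 16 ≃ Fin 16)
    (hg : ∀ f : W16, f ∈ CR C2 ↔ f ∘ g ∈ CR C1) (x : Fin 8) :
    ∃ d : W8, x ≠ 0 → (hammingNorm d = 2 ∧ Rel C1 C2 g (ind {0, x}) d) := by
  by_cases hx : x = 0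
  · exact ⟨0, fun h => absurd hx h⟩
  have hw : hammingNorm (ind ({0, x} : Finset (Fin 8))) = 2 := by
    rw [wt_ind, pair_card x hx]
  have hsum : ∑ i, ind ({0, x} : Finset (Fin 8)) i = 0 := by
    rw [sum_eq, hw]
    rfl
  obtain ⟨u', hu'⟩ := exists_rel h1 h2 g hg _ hsum
  have hm := rel_wt h1 h2 hu'
  rw [hw] at hm
  have hle := wt_le u'
  rw [Fintype.card_fin] at hle
  have h1' := wt_add_one u'
  rw [Fintype.card_fin] at h1'
  by_cases h2' : hammingNorm u' = 2
  · exact ⟨u', fun _ => ⟨h2', hu'⟩⟩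
  · refine ⟨u' + 1, fun _ => ⟨?_, rel_one h2 hu'⟩⟩
    omega

theorem gen_eq : ∀ x : Fin 8, x ≠ 0 → ∀ j : Fin 8,
    (Pi.single 0 1 + Pi.single x 1 : W8) j = ind {0, x} j := by decide

theorem decomp (u : W8) (hu : ∑ i, u i = 0) :
    u = ∑ i, u i • (Pi.single 0 1 + Pi.single i 1 : W8) := by
  funext j
  simp only [Finset.sum_apply, Pi.smul_apply, Pi.add_apply, smul_eq_mul, mul_add,
    Finset.sum_add_distrib, ← Finset.sum_mul, hu, zero_mul, zero_add]
  simp [Pi.single_apply]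

theorem core_half (h1 : Gol C1) (h2 : Gol C2) :
    ∃ (σ : Fin 8 ≃ Fin 8) (g : Fin 16 ≃ Fin 16), ∀ (u : W8) (v : W16), J u v ∈ C1 →
      J (u ∘ σ.symm) (v ∘ g.symm) ∈ C2 := by
  obtain ⟨g, hg⟩ := rm_unique (rm_of_gol h1) (rm_of_gol h2)
  choose d hd using exists_two h1 h2 g hg
  set D : Fin 8 → Finset (Fin 8) := fun x => supp (d x) with hD
  have hDc : ∀ x, x ≠ 0 → (D x).card = 2 := by
    intro x hx
    rw [hD]
    show (supp (d x)).card = 2
    rw [← wt_eq]
    exact (hd x hx).1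
  have hDi : ∀ x y, x ≠ 0 → y ≠ 0 → x ≠ y → (D x ∩ D y).card = 1 := by
    intro x y hx hy hxy
    have hr := rel_add (hd x hx).2 (hd y hy).2
    have hm := rel_wt h1 h2 hr
    have ha := wt_add (ind ({0, x} : Finset (Fin 8))) (ind {0, y})
    rw [supp_ind, supp_ind, pair_inter x y hx hy hxy, wt_ind, wt_ind, pair_card x hx,
      pair_card y hy] at ha
    have hb := wt_add (d x) (d y)
    rw [(hd x hx).1, (hd y hy).1] at hb
    show (supp (d x) ∩ supp (d y)).card = 1
    omega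
  -- the common point
  obtain ⟨a, ha⟩ := Finset.card_eq_one.1 (hDi 1 2 (by decide) (by decide) (by decide))
  have ha' : a ∈ D 1 ∩ D 2 := by
    rw [ha]
    exact Finset.mem_singleton_self a
  have hall : ∀ x, x ≠ 0 → a ∈ D x := by
    intro x hx
    by_cases hx1 : x = 1
    · rw [hx1]
      exact (Finset.mem_inter.1 ha').1
    by_cases hx2 : x = 2
    · rw [hx2]
      exact (Finset.mem_inter.1 ha').2
    obtain ⟨y, hy0, hy1, hy2, hyx⟩ : ∃ y : Fin 8, y ≠ 0 ∧ y ≠ 1 ∧ y ≠ 2 ∧ y ≠ x := by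
      by_cases hx3 : x = 3
      · exact ⟨4, by decide, by decide, by decide, by rw [hx3]; decide⟩
      · exact ⟨3, by decide, by decide, by decide, fun e => hx3 e.symm⟩
    exact star (hDc 1 (by decide)) (hDc 2 (by decide)) (hDc x hx)
      (hDi 1 2 (by decide) (by decide) (by decide)) (hDi 1 x (by decide) hx (Ne.symm hx1))
      (hDi 2 x (by decide) hx (Ne.symm hx2)) (hDi 1 y (by decide) hy0 (Ne.symm hy1))
      (hDi 2 y (by decide) hy0 (Ne.symm hy2)) (hDi x y hx hy0 (Ne.symm hyx)) ha'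
  have hs : ∀ x, ∃ q, x ≠ 0 → (q ≠ a ∧ D x = {a, q}) := by
    intro x
    by_cases hx : x = 0
    · exact ⟨a, fun h => absurd hx h⟩
    have hc : ((D x).erase a).card = 1 := by
      rw [Finset.card_erase_of_mem (hall x hx), hDc x hx]
    obtain ⟨q, hq⟩ := Finset.card_eq_one.1 hc
    have hqm : q ∈ (D x).erase a := by
      rw [hq]
      exact Finset.mem_singleton_self q
    refine ⟨q, fun _ => ⟨Finset.ne_of_mem_erase hqm, ?_⟩⟩
    rw [← Finset.insert_erase (hall x hx), hq]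
  choose s hs using hs
  set σ' : Fin 8 → Fin 8 := fun x => if x = 0 then a else s x with hσ'
  have hσ0 : σ' 0 = a := by
    rw [hσ']
    simp
  have hσx : ∀ x, x ≠ 0 → σ' x = s x := by
    intro x hx
    rw [hσ']
    simp [hx]
  have hinj : Function.Injective σ' := by
    intro x y hxy
    by_cases hx : x = 0
    · by_cases hy : y = 0
      · rw [hx, hy]
      · exfalso
        rw [hx, hσ0, hσx y hy] at hxy
        exact (hs y hy).1 hxy.symm
    · by_cases hy : y = 0
      · exfalso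
        rw [hy, hσ0, hσx x hx] at hxy
        exact (hs x hx).1 hxy
      · by_contra hne
        rw [hσx x hx, hσx y hy] at hxy
        have e : D x = D y := by
          rw [(hs x hx).2, (hs y hy).2, hxy]
        have := hDi x y hx hy hne
        rw [e, Finset.inter_self, hDc y hy] at this
        omega
  set σ : Fin 8 ≃ Fin 8 := Equiv.ofBijective σ' (Finite.injective_iff_bijective.1 hinj) with hσ
  have hσa : ∀ x, σ x = σ' x := fun x => rfl
  have hgen : ∀ x, x ≠ 0 → d x = ind ({0, x} : Finset (Fin 8)) ∘ σ.symm := by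
    intro x hx
    rw [ind_comp, Finset.map_insert, Finset.map_singleton]
    show d x = ind {σ 0, σ x}
    rw [hσa, hσa, hσ0, hσx x hx, ← (hs x hx).2]
    exact (ind_supp (d x)).symm
  -- the set of good left parts
  let S : Submodule (ZMod 2) W8 :=
    { carrier := {u | Rel C1 C2 g u (u ∘ σ.symm)}
      add_mem' := by
        intro u u' hu hu'
        exact rel_add hu hu'
      zero_mem' := rel_zero
      smul_mem' := by
        intro r u hu
        rcases z2 r with h | h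
        · rw [h, zero_smul]
          exact rel_zero
        · rw [h, one_smul]
          exact hu }
  have hS : ∀ u : W8, u ∈ S ↔ Rel C1 C2 g u (u ∘ σ.symm) := fun u => Iff.rfl
  have hgenS : ∀ i : Fin 8, (Pi.single 0 1 + Pi.single i 1 : W8) ∈ S := by
    intro i
    by_cases hi : i = 0
    · rw [hi, add_self']
      exact S.zero_mem
    · have e : (Pi.single 0 1 + Pi.single i 1 : W8) = ind {0, i} := funext (gen_eq i hi)
      rw [e, hS, ← hgen i hi]
      exact (hd i hi).2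
  refine ⟨σ, g, ?_⟩
  intro u v huv
  have hu := even_left h1 huv
  have hmem : u ∈ S := by
    rw [decomp u hu]
    apply S.sum_mem
    intro i _
    exact S.smul_mem _ (hgenS i)
  exact rel_mem hg ((hS u).1 hmem) huv

theorem core (h1 : Gol C1) (h2 : Gol C2) :
    ∃ e : Fin 8 ⊕ Fin 16 ≃ Fin 8 ⊕ Fin 16, ∀ c : W24, c ∈ C1 ↔ c ∘ e ∈ C2 := by
  obtain ⟨σ, g, h⟩ := core_half h1 h2
  set e : Fin 8 ⊕ Fin 16 ≃ Fin 8 ⊕ Fin 16 := Equiv.sumCongr σ.symm g.symm with he
  have hfwd : ∀ c : W24, c ∈ C1 → c ∘ e ∈ C2 := by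
    intro c hc
    rw [← J_eq c] at hc
    have := h _ _ hc
    have e2 : c ∘ e = J ((c ∘ Sum.inl) ∘ σ.symm) ((c ∘ Sum.inr) ∘ g.symm) := by
      funext i
      cases i <;> rfl
    rw [e2]
    exact this
  refine ⟨e, fun c => ⟨hfwd c, ?_⟩⟩
  intro hc
  set L : W24 ≃ₗ[ZMod 2] W24 := LinearEquiv.funCongrLeft (ZMod 2) (ZMod 2) e with hL
  have hLa : ∀ c : W24, L c = c ∘ e := fun c => rfl
  have hle : C1.map (L : W24 →ₗ[ZMod 2] W24) ≤ C2 := by
    rintro _ ⟨c, hc, rfl⟩
    exact hfwd c hc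
  have heq : C1.map (L : W24 →ₗ[ZMod 2] W24) = C2 := by
    apply Submodule.eq_of_le_of_finrank_eq hle
    rw [LinearEquiv.finrank_map_eq, h1.dim, h2.dim]
  rw [← heq] at hc
  obtain ⟨c', hc', hcc⟩ := hc
  have : c' = c := L.injective hcc
  rw [← this]
  exact hc'

end core

end Cfsg.Agent.Helper29.GU
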