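import Mathlib
import Cfsg.Agent.Helper29.GU.Core

set_option autoImplicit false

/-! Uniqueness of the doubly even self-dual [24,12,8] code on arbitrary index types. -/

namespace Cfsg.Agent.Helper29.GU

structure IsGol {ι : Type*} [Fintype ι] (C : Submodule (ZMod 2) (ι → ZMod 2)) : Prop where
  card : Fintype.card ι = 24
  dim : Module.finrank (ZMod 2) C = 12
  orth : ∀ c ∈ C, ∀ c' ∈ C, ∑ i, c i * c' i = 0
  four : ∀ c ∈ C, 4 ∣ hammingNorm c
  min : ∀ c ∈ C, c ≠ 0 → 8 ≤ hammingNorm c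
  oct : ∃ w ∈ C, hammingNorm w = 8

theorem one_mem {ι : Type*} [Fintype ι] {C : Submodule (ZMod 2) (ι → ZMod 2)} (h : IsGol C) :
    (1 : ι → ZMod 2) ∈ C := by
  classical
  have hle : C ≤ (dotB ι).orthogonal C := by
    intro c hc
    rw [mem_orth]
    intro w hw
    exact h.orth w hw c hc
  have hfr := finrank_orth C
  rw [h.card, h.dim] at hfr
  have heq : C = (dotB ι).orthogonal C :=
    Submodule.eq_of_le_of_finrank_eq hle (by rw [h.dim, hfr])
  rw [heq, mem_orth]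
  intro w hw
  simp only [Pi.one_apply, mul_one]
  rw [sum_eq]
  obtain ⟨k, hk⟩ := h.four w hw
  rw [hk]
  push_cast
  have : (4 : ZMod 2) = 0 := by decide
  rw [this, zero_mul]

theorem normalize {ι : Type*} [Fintype ι] {C : Submodule (ZMod 2) (ι → ZMod 2)} (h : IsGol C) :
    ∃ e : Fin 8 ⊕ Fin 16 ≃ ι,
      Gol (C.map (LinearEquiv.funCongrLeft (ZMod 2) (ZMod 2) e : (ι → ZMod 2) →ₗ[ZMod 2] W24)) := by
  classical
  obtain ⟨w, hw, hw8⟩ := h.oct
  have hc1 : Fintype.card {x // x ∈ supp w} = 8 := by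
    rw [Fintype.card_coe, ← wt_eq, hw8]
  have hc2 : Fintype.card {x // ¬ x ∈ supp w} = 16 := by
    rw [Fintype.card_subtype_compl, h.card, hc1]
  let e1 : Fin 8 ≃ {x // x ∈ supp w} := (Fintype.equivFinOfCardEq hc1).symm
  let e2 : Fin 16 ≃ {x // ¬ x ∈ supp w} := (Fintype.equivFinOfCardEq hc2).symm
  let e : Fin 8 ⊕ Fin 16 ≃ ι := (Equiv.sumCongr e1 e2).trans (Equiv.sumCompl (fun x => x ∈ supp w))
  have hwe : w ∘ e = J 1 0 := by
    funext i
    rcases i with i | i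
    · show w (e1 i : ι) = 1
      exact z2_ne _ (mem_supp.1 (e1 i).2)
    · show w (e2 i : ι) = 0
      have := (e2 i).2
      rw [mem_supp, not_not] at this
      exact this
  refine ⟨e, ?_⟩
  set L : (ι → ZMod 2) ≃ₗ[ZMod 2] W24 := LinearEquiv.funCongrLeft (ZMod 2) (ZMod 2) e with hL
  have hLa : ∀ c, L c = c ∘ e := fun c => rfl
  have hoct : J 1 0 ∈ C.map (L : (ι → ZMod 2) →ₗ[ZMod 2] W24) := ⟨w, hw, hwe⟩
  refine ⟨?_, ?_, ?_, ?_, hoct, ?_⟩
  · rw [LinearEquiv.finrank_map_eq, h.dim]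
  · rintro _ ⟨c, hc, rfl⟩ _ ⟨c', hc', rfl⟩
    rw [← h.orth c hc c' hc']
    exact Equiv.sum_comp e (fun i => c i * c' i)
  · rintro _ ⟨c, hc, rfl⟩
    show 4 ∣ hammingNorm (c ∘ e)
    rw [wt_comp]
    exact h.four c hc
  · rintro _ ⟨c, hc, rfl⟩ hne
    show 8 ≤ hammingNorm (c ∘ e)
    rw [wt_comp]
    apply h.min c hc
    intro e0
    apply hne
    rw [e0]
    rfl
  · have h1 : (1 : W24) ∈ C.map (L : (ι → ZMod 2) →ₗ[ZMod 2] W24) := ⟨1, one_mem h, rfl⟩
    have := Submodule.add_mem _ h1 hoct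
    have e3 : (1 : W24) + J 1 0 = J 0 1 := by
      funext i
      rcases i with i | i
      · show (1 : ZMod 2) + 1 = 0
        decide
      · show (1 : ZMod 2) + 0 = 1
        decide
    rwa [e3] at this

theorem gol_unique {ι κ : Type*} [Fintype ι] [Fintype κ] {C : Submodule (ZMod 2) (ι → ZMod 2)}
    {G : Submodule (ZMod 2) (κ → ZMod 2)} (hC : IsGol C) (hG : IsGol G) :
    ∃ e : ι ≃ κ, ∀ w : κ → ZMod 2, w ∈ G ↔ w ∘ e ∈ C := by
  obtain ⟨e1, h1⟩ := normalize hC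
  obtain ⟨e2, h2⟩ := normalize hG
  obtain ⟨e, he⟩ := core h2 h1
  refine ⟨e1.symm.trans (e.trans e2), ?_⟩
  intro w
  have a1 : w ∈ G ↔ w ∘ e2 ∈ G.map
      (LinearEquiv.funCongrLeft (ZMod 2) (ZMod 2) e2 : (κ → ZMod 2) →ₗ[ZMod 2] W24) := by
    constructor
    · intro hw
      exact ⟨w, hw, rfl⟩
    · rintro ⟨w', hw', hww⟩
      have : w' = w := (LinearEquiv.funCongrLeft (ZMod 2) (ZMod 2) e2).injective hww
      rw [← this]
      exact hw'
  have a2 : (w ∘ e2) ∘ e ∈ C.map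
      (LinearEquiv.funCongrLeft (ZMod 2) (ZMod 2) e1 : (ι → ZMod 2) →ₗ[ZMod 2] W24) ↔
      w ∘ (e1.symm.trans (e.trans e2)) ∈ C := by
    constructor
    · rintro ⟨w', hw', hww⟩
      have : w' = w ∘ (e1.symm.trans (e.trans e2)) := by
        funext i
        have h3 := congrFun hww (e1.symm i)
        have h4 : w' (e1 (e1.symm i)) = w (e2 (e (e1.symm i))) := h3
        rw [Equiv.apply_symm_apply] at h4
        exact h4
      rw [← this]
      exact hw'
    · intro hw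
      refine ⟨_, hw, ?_⟩
      funext i
      show w ((e1.symm.trans (e.trans e2)) (e1 i)) = w (e2 (e i))
      simp
  rw [a1, he, a2]

end Cfsg.Agent.Helper29.GU
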