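import Mathlib
import Cfsg.Prelude
import Cfsg.Agent.Helper29.GU.Unique
import Cfsg.Agent.S5622
import Cfsg.Agent.S0358
import Cfsg.Agent.S0359
import Cfsg.Agent.S0360
import Cfsg.Agent.S0362

set_option autoImplicit false

/-! `golayCode` is a doubly even self-dual [24,12,8] code. -/

namespace Cfsg.Agent.Helper29.GU

theorem min_of_four {ι : Type*} [Fintype ι] {C : Submodule (ZMod 2) (ι → ZMod 2)}
    (h4 : ∀ w ∈ C, 4 ∣ hammingNorm w) (hno4 : ∀ w ∈ C, hammingNorm w ≠ 4) :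
    ∀ w ∈ C, w ≠ 0 → 8 ≤ hammingNorm w := by
  intro w hw hne
  have h1 := h4 w hw
  have h2 := hno4 w hw
  have h3 : hammingNorm w ≠ 0 := by
    rw [Ne, hammingNorm_eq_zero]
    exact hne
  omega

theorem isGol_fin24 (C : Submodule (ZMod 2) (Fin 24 → ZMod 2))
    (hdim : Module.finrank (ZMod 2) C = 12)
    (horth : ∀ v ∈ C, ∀ w ∈ C, ∑ i, v i * w i = 0) (h4 : ∀ w ∈ C, 4 ∣ hammingNorm w)
    (hno4 : ∀ w ∈ C, hammingNorm w ≠ 4) : IsGol C :=
  ⟨by simp, hdim, horth, h4, min_of_four h4 hno4,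
    (Cfsg.Agent.S5622.result C hdim horth (min_of_four h4 hno4)).1⟩

theorem isGol_golay : IsGol Cfsg.golayCode := by
  refine ⟨by simp [ZMod.card], Cfsg.Agent.S0358.result, ?_, ?_, ?_, ?_⟩
  · intro c hc c' hc'
    exact Cfsg.Agent.S0362.result c c' hc hc'
  · intro c hc
    rcases Cfsg.Agent.S0359.result c hc with h | h | h | h | h <;> rw [h] <;> decide
  · intro c hc hne
    have h3 : hammingNorm c ≠ 0 := by
      rw [Ne, hammingNorm_eq_zero]
      exact hne
    rcases Cfsg.Agent.S0359.result c hc with h | h | h | h | h <;> omega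
  · have h759 := Cfsg.Agent.S0360.result
    have hne : (Cfsg.octads).Nonempty := by
      rw [← Set.ncard_pos]
      omega
    obtain ⟨b, hb⟩ := hne
    obtain ⟨⟨w, hw, rfl⟩, hcard⟩ := hb
    exact ⟨w, hw, hcard⟩

end Cfsg.Agent.Helper29.GU
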