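import Mathlib
import Cfsg.Agent.Helper29.GU.Basic
import Cfsg.Agent.S5623

set_option autoImplicit false

/-! Sphere packing: a binary code of length 24 and minimum weight at least 8 has dimension ≤ 12;
 generalities on spans. -/

namespace Cfsg.Agent.Helper29.GU

open Cfsg.Agent.S5623 in
theorem sphere_fin24 (D : Submodule (ZMod 2) (Fin 24 → ZMod 2))
    (hmin : ∀ w ∈ D, w ≠ 0 → 8 ≤ hammingNorm w) : Module.finrank (ZMod 2) D ≤ 12 := by
  have h1 := Submodule.card_eq_card_quotient_mul_card D
  have h2 : Nat.card (Fin 24 → ZMod 2) = 2 ^ 24 := by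
    rw [Nat.card_eq_fintype_card]
    simp [ZMod.card]
  have h3 : Nat.card D = 2 ^ Module.finrank (ZMod 2) D := by
    have : Fintype D := Fintype.ofFinite D
    rw [Nat.card_eq_fintype_card, Module.card_eq_pow_finrank (K := ZMod 2) (V := D)]
    simp [ZMod.card]
  have h4 : 2325 ≤ Nat.card ((Fin 24 → ZMod 2) ⧸ D) := by
    have hc : Nat.card {u : Fin 24 → ZMod 2 // hammingNorm u ≤ 3} = 2325 := by
      rw [Nat.card_eq_fintype_card, Fintype.card_subtype]
      exact card_wt_le3
    rw [← hc]
    apply Nat.card_le_card_of_injective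
      (fun u : {u : Fin 24 → ZMod 2 // hammingNorm u ≤ 3} =>
        (Submodule.Quotient.mk u.1 : (Fin 24 → ZMod 2) ⧸ D))
    intro u u' huu
    rw [Submodule.Quotient.eq] at huu
    by_contra hne
    have hne' : u.1 - u'.1 ≠ 0 := by
      intro e
      apply hne
      exact Subtype.ext (sub_eq_zero.1 e)
    have h8 := hmin _ huu hne'
    have hle := wt_sub_le u.1 u'.1
    have := u.2
    have := u'.2
    omega
  rw [h2, h3] at h1
  by_contra hcon
  push Not at hcon
  have h5 : 2 ^ 13 ≤ 2 ^ Module.finrank (ZMod 2) D := Nat.pow_le_pow_right (by norm_num) hcon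
  have h6 := Nat.mul_le_mul h5 h4
  rw [← h1] at h6
  norm_num at h6

theorem sphere {ι : Type*} [Fintype ι] (hι : Fintype.card ι = 24)
    (D : Submodule (ZMod 2) (ι → ZMod 2))
    (hmin : ∀ w ∈ D, w ≠ 0 → 8 ≤ hammingNorm w) : Module.finrank (ZMod 2) D ≤ 12 := by
  classical
  let e : Fin 24 ≃ ι := (Fintype.equivFinOfCardEq hι).symm
  set L : (ι → ZMod 2) ≃ₗ[ZMod 2] (Fin 24 → ZMod 2) :=
    LinearEquiv.funCongrLeft (ZMod 2) (ZMod 2) e with hL
  have h := sphere_fin24 (D.map (L : (ι → ZMod 2) →ₗ[ZMod 2] (Fin 24 → ZMod 2))) (by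
    rintro _ ⟨c, hc, rfl⟩ hne
    show 8 ≤ hammingNorm (c ∘ e)
    rw [wt_comp]
    apply hmin c hc
    intro e0
    apply hne
    rw [e0]
    rfl)
  rwa [LinearEquiv.finrank_map_eq] at h

variable {ι : Type*} [Fintype ι]

theorem span_orth {S : Set (ι → ZMod 2)} (h : ∀ u ∈ S, ∀ u' ∈ S, ∑ i, u i * u' i = 0) :
    ∀ c ∈ Submodule.span (ZMod 2) S, ∀ c' ∈ Submodule.span (ZMod 2) S, ∑ i, c i * c' i = 0 := by
  have h1 : ∀ u ∈ S, ∀ c' ∈ Submodule.span (ZMod 2) S, ∑ i, u i * c' i = 0 := by
    intro u hu c' hc'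
    induction hc' using Submodule.span_induction with
    | mem x hx => exact h u hu x hx
    | zero => simp
    | add x y _ _ hx hy =>
      simp only [Pi.add_apply, mul_add, Finset.sum_add_distrib, hx, hy, add_zero]
    | smul a x _ hx =>
      rcases z2 a with ha | ha
      · rw [ha, zero_smul]
        simp
      · rw [ha, one_smul]
        exact hx
  intro c hc c' hc'
  induction hc using Submodule.span_induction with
  | mem x hx => exact h1 x hx c' hc'
  | zero => simp
  | add x y _ _ hx hy =>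
    simp only [Pi.add_apply, add_mul, Finset.sum_add_distrib, hx, hy, add_zero]
  | smul a x _ hx =>
    rcases z2 a with ha | ha
    · rw [ha, zero_smul]
      simp
    · rw [ha, one_smul]
      exact hx

theorem span_four {S : Set (ι → ZMod 2)} (h : ∀ u ∈ S, ∀ u' ∈ S, ∑ i, u i * u' i = 0)
    (h4 : ∀ u ∈ S, 4 ∣ hammingNorm u) :
    ∀ c ∈ Submodule.span (ZMod 2) S, 4 ∣ hammingNorm c := by
  classical
  intro c hc
  induction hc using Submodule.span_induction with
  | mem x hx => exact h4 x hx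
  | zero => simp
  | add x y hx hy hx4 hy4 =>
    have ho := span_orth h x hx y hy
    rw [dot_eq, ZMod.natCast_eq_zero_iff] at ho
    have := wt_add x y
    omega
  | smul a x _ hx =>
    rcases z2 a with ha | ha
    · rw [ha, zero_smul]
      simp
    · rw [ha, one_smul]
      exact hx

end Cfsg.Agent.Helper29.GU
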