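import Mathlib
import Cfsg.Prelude
import Cfsg.Agent.Helper29.GU.Sphere
import Cfsg.Agent.Helper29.GU.GolayIs
import Cfsg.Agent.Helper2.Steiner
import Cfsg.Agent.S0352

set_option autoImplicit false

/-! The code spanned by the blocks of a Steiner system S(5,8,24). -/

namespace Cfsg.Agent.Helper29.GU

open Cfsg.Agent.Helper2.Steiner

variable {α : Type*} [Fintype α] [DecidableEq α]

/-- the binary code spanned by the blocks -/
noncomputable def codeOf (B : Set (Finset α)) : Submodule (ZMod 2) (α → ZMod 2) :=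
  Submodule.span (ZMod 2) (ind '' B)

theorem lam_le_one {t k : ℕ} {B : Set (Finset α)} (hB : Cfsg.IsSteinerSystem t k B)
    (I : Finset α) (hI : t ≤ I.card) :
    ((blocks B).filter (fun c => I ⊆ c)).card ≤ 1 := by
  rw [Finset.card_le_one]
  intro c hc c' hc'
  rw [Finset.mem_filter, mem_blocks] at hc hc'
  obtain ⟨s, hs, hst⟩ := Finset.exists_subset_card_eq hI
  obtain ⟨b0, _, huniq⟩ := hB.2 s hst
  exact (huniq c ⟨hc.1, hs.trans hc.2⟩).trans (huniq c' ⟨hc'.1, hs.trans hc'.2⟩).symm

theorem M_eq {t k : ℕ} {B : Set (Finset α)} (hB : Cfsg.IsSteinerSystem t k B) (W : Finset α)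
    (i : ℕ) (hi : i ≤ t) :
    (∑ c ∈ blocks B, ((W ∩ c).card).choose i) * (k - i).choose (t - i)
      = (W.card).choose i * (Fintype.card α - i).choose (t - i) := by
  rw [inter_sum, Finset.sum_mul]
  have h1 : ∀ I ∈ W.powersetCard i,
      ((blocks B).filter (fun c => I ⊆ c)).card * (k - i).choose (t - i)
        = (Fintype.card α - i).choose (t - i) := by
    intro I hI
    rw [Finset.mem_powersetCard] at hI
    have := lambda_count hB I (by rw [hI.2]; exact hi)
    rw [hI.2] at this
    exact this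
  rw [Finset.sum_congr rfl h1, Finset.sum_const, Finset.card_powersetCard, smul_eq_mul]

theorem M_le {t k : ℕ} {B : Set (Finset α)} (hB : Cfsg.IsSteinerSystem t k B) (W : Finset α)
    (i : ℕ) (hi : t ≤ i) :
    ∑ c ∈ blocks B, ((W ∩ c).card).choose i ≤ (W.card).choose i := by
  rw [inter_sum]
  have h1 : ∀ I ∈ W.powersetCard i, ((blocks B).filter (fun c => I ⊆ c)).card ≤ 1 := by
    intro I hI
    rw [Finset.mem_powersetCard] at hI
    exact lam_le_one hB I (by rw [hI.2]; exact hi)
  have := Finset.sum_le_sum h1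
  rwa [Finset.sum_const, Finset.card_powersetCard, smul_eq_mul, mul_one] at this

theorem alt_term : ∀ m : Fin 8, Even m.val →
    ∑ i ∈ Finset.range 8, (-2 : ℤ) ^ i * ((m.val.choose i : ℕ) : ℤ) = 1 := by decide

theorem alt_sum {B : Set (Finset α)} (W : Finset α) (hW : W.card ≤ 7)
    (hev : ∀ c ∈ B, Even (W ∩ c).card) :
    ((blocks B).card : ℤ) = ∑ i ∈ Finset.range 8,
      (-2 : ℤ) ^ i * ((∑ c ∈ blocks B, ((W ∩ c).card).choose i : ℕ) : ℤ) := by
  have h1 : ∀ c ∈ blocks B, (1 : ℤ) = ∑ i ∈ Finset.range 8,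
      (-2 : ℤ) ^ i * ((((W ∩ c).card).choose i : ℕ) : ℤ) := by
    intro c hc
    have hlt : (W ∩ c).card < 8 :=
      lt_of_le_of_lt (Finset.card_le_card Finset.inter_subset_left) (by omega)
    exact (alt_term ⟨_, hlt⟩ (hev c (mem_blocks.1 hc))).symm
  rw [Finset.card_eq_sum_ones, Nat.cast_sum]
  simp only [Nat.cast_one]
  rw [Finset.sum_congr rfl h1, Finset.sum_comm]
  apply Finset.sum_congr rfl
  intro i _
  rw [Nat.cast_sum, Finset.mul_sum]

theorem dual_min (hα : Fintype.card α = 24) {B : Set (Finset α)}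
    (hB : Cfsg.IsSteinerSystem 5 8 B) (W : Finset α) (hev : ∀ c ∈ B, Even (W ∩ c).card)
    (hW : W.card ≤ 7) : W.card = 0 := by
  have ha := alt_sum W hW hev
  have m0 := M_eq hB W 0 (by norm_num)
  have m1 := M_eq hB W 1 (by norm_num)
  have m2 := M_eq hB W 2 (by norm_num)
  have m3 := M_eq hB W 3 (by norm_num)
  have m4 := M_eq hB W 4 (by norm_num)
  have m5 := M_eq hB W 5 (by norm_num)
  have m6 := M_le hB W 6 (by norm_num)
  have m7 := M_le hB W 7 (by norm_num)
  have hb : (blocks B).card = ∑ c ∈ blocks B, ((W ∩ c).card).choose 0 := by simp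
  rw [hb] at ha
  rw [hα] at m0 m1 m2 m3 m4 m5
  obtain ⟨M, hM⟩ : ∃ M : ℕ → ℕ, ∀ i, M i = ∑ c ∈ blocks B, ((W ∩ c).card).choose i :=
    ⟨_, fun i => rfl⟩
  simp only [← hM] at ha m0 m1 m2 m3 m4 m5 m6 m7
  simp only [Finset.sum_range_succ, Finset.sum_range_zero] at ha
  have c0 : Nat.choose 24 5 = 42504 := by decide
  have c1 : Nat.choose 23 4 = 8855 := by decide
  have c2 : Nat.choose 22 3 = 1540 := by decide
  have c3 : Nat.choose 21 2 = 210 := by decide
  have d0 : Nat.choose 8 5 = 56 := by decide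
  have d1 : Nat.choose 7 4 = 35 := by decide
  have d2 : Nat.choose 6 3 = 20 := by decide
  have d3 : Nat.choose 5 2 = 10 := by decide
  norm_num at m0 m1 m2 m3 m4 m5
  rw [c0, d0] at m0
  rw [c1, d1] at m1
  rw [c2, d2] at m2
  rw [c3, d3] at m3
  norm_num at ha
  by_contra hne
  generalize W.card = k at *
  interval_cases k <;> simp [Nat.choose] at m0 m1 m2 m3 m4 m5 m6 m7 <;> omega

theorem isGol_codeOf (hα : Fintype.card α = 24) {B : Set (Finset α)}
    (hB : Cfsg.IsSteinerSystem 5 8 B) : IsGol (codeOf B) := by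
  have hgen_orth : ∀ u ∈ ind '' B, ∀ u' ∈ ind '' B, ∑ i, u i * u' i = 0 := by
    rintro _ ⟨b, hb, rfl⟩ _ ⟨c, hc, rfl⟩
    rw [dot_eq, supp_ind, supp_ind, ZMod.natCast_eq_zero_iff]
    by_cases hbc : b = c
    · rw [hbc, Finset.inter_self, hB.1 c hc]
      decide
    · rcases Cfsg.Agent.S0352.result hα hB hb hc hbc with h | h | h <;> rw [h] <;> decide
  have hgen4 : ∀ u ∈ ind '' B, 4 ∣ hammingNorm u := by
    rintro _ ⟨b, hb, rfl⟩
    rw [wt_ind, hB.1 b hb]
    decide
  have horth := span_orth hgen_orth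
  have h4 := span_four hgen_orth hgen4
  have hdual : ∀ w ∈ (dotB α).orthogonal (codeOf B), w ≠ 0 → 8 ≤ hammingNorm w := by
    intro w hw hne
    by_contra hlt
    push Not at hlt
    rw [mem_orth] at hw
    have hev : ∀ c ∈ B, Even (supp w ∩ c).card := by
      intro c hc
      have := hw (ind c) (Submodule.subset_span ⟨c, hc, rfl⟩)
      rw [dot_eq, supp_ind, ZMod.natCast_eq_zero_iff] at this
      rw [Finset.inter_comm]
      exact even_iff_two_dvd.2 this
    have h0 := dual_min hα hB (supp w) hev (by rw [← wt_eq]; omega)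
    apply hne
    rw [← wt_eq, hammingNorm_eq_zero] at h0
    exact h0
  have hle : codeOf B ≤ (dotB α).orthogonal (codeOf B) := by
    intro c hc
    rw [mem_orth]
    intro w hw
    exact horth w hw c hc
  have hfr : Module.finrank (ZMod 2) ((dotB α).orthogonal (codeOf B))
      = 24 - Module.finrank (ZMod 2) (codeOf B) := by
    have := finrank_orth (codeOf B)
    rw [hα] at this
    exact this
  have hs := sphere hα _ hdual
  have hm := Submodule.finrank_mono hle
  have h24 : Module.finrank (ZMod 2) (codeOf B) ≤ 24 := by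
    have := Submodule.finrank_le (codeOf B)
    have h' : Module.finrank (ZMod 2) (α → ZMod 2) = 24 := by
      rw [Module.finrank_pi, hα]
    omega
  have key : ∀ (a b : ℕ), b = 24 - a → b ≤ 12 → a ≤ b → a ≤ 24 → a = 12 := by
    intros
    omega
  have hdim := key _ _ hfr hs hm h24
  refine ⟨hα, hdim, horth, h4, fun c hc hne => hdual c (hle hc) hne, ?_⟩
  obtain ⟨s, -, hs5⟩ := Finset.exists_subset_card_eq (s := (Finset.univ : Finset α)) (n := 5)
    (by rw [Finset.card_univ, hα]; norm_num)
  obtain ⟨b, ⟨hb, _⟩, _⟩ := hB.2 s hs5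
  exact ⟨ind b, Submodule.subset_span ⟨b, hb, rfl⟩, by rw [wt_ind, hB.1 b hb]⟩

theorem card_blocks_5824 (hα : Fintype.card α = 24) {B : Set (Finset α)}
    (hB : Cfsg.IsSteinerSystem 5 8 B) : B.ncard = 759 := by
  rw [ncard_eq]
  have h := lambda_count hB ∅ (by simp)
  have e : (blocks B).filter (fun c => (∅ : Finset α) ⊆ c) = blocks B := by
    apply Finset.filter_true_of_mem
    intro c _
    exact Finset.empty_subset c
  rw [e, hα] at h
  have c0 : Nat.choose 24 5 = 42504 := by decide
  have d0 : Nat.choose 8 5 = 56 := by decide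
  simp only [Finset.card_empty, Nat.sub_zero] at h
  rw [c0, d0] at h
  omega

theorem iso_octads (hα : Fintype.card α = 24) {B : Set (Finset α)}
    (hB : Cfsg.IsSteinerSystem 5 8 B) : Cfsg.SetSystemIso B Cfsg.octads := by
  obtain ⟨e, he⟩ := gol_unique (isGol_codeOf hα hB) isGol_golay
  refine ⟨e, ?_⟩
  have hsub : (fun b => b.image e) '' B ⊆ Cfsg.octads := by
    rintro _ ⟨b, hb, rfl⟩
    refine ⟨⟨ind (b.image e), ?_, ?_⟩, ?_⟩
    · rw [SetLike.mem_coe, he]
      have : ind (b.image e) ∘ e = ind b := by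
        funext i
        simp only [Function.comp_apply, ind]
        by_cases hi : i ∈ b
        · rw [if_pos hi, if_pos (Finset.mem_image_of_mem e hi)]
        · rw [if_neg hi, if_neg]
          intro hm
          obtain ⟨j, hj, hji⟩ := Finset.mem_image.1 hm
          exact hi (e.injective hji ▸ hj)
      rw [this]
      exact Submodule.subset_span ⟨b, hb, rfl⟩
    · exact supp_ind _
    · show (b.image e).card = 8
      rw [Finset.card_image_of_injective _ e.injective, hB.1 b hb]
  apply Set.eq_of_subset_of_ncard_le hsub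
  · rw [Set.ncard_image_of_injective _ (Finset.image_injective e.injective),
      Cfsg.Agent.S0360.result, card_blocks_5824 hα hB]

omit [Fintype α] [DecidableEq α] in
theorem iso_of_iso {β γ : Type*} [DecidableEq β] [DecidableEq γ] {B : Set (Finset α)}
    {B' : Set (Finset β)} {O : Set (Finset γ)} (h1 : Cfsg.SetSystemIso B O)
    (h2 : Cfsg.SetSystemIso B' O) : Cfsg.SetSystemIso B B' := by
  obtain ⟨e1, h1⟩ := h1
  obtain ⟨e2, h2⟩ := h2
  refine ⟨e1.trans e2.symm, ?_⟩
  have hcomp : ∀ b : Finset α, b.image (e1.trans e2.symm) = (b.image e1).image e2.symm := by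
    intro b
    rw [Finset.image_image]
    rfl
  have hinv : ∀ b' : Finset β, (b'.image e2).image e2.symm = b' := by
    intro b'
    rw [Finset.image_image]
    simp
  ext b'
  constructor
  · rintro ⟨b, hb, rfl⟩
    have : b.image e1 ∈ O := by
      rw [← h1]
      exact ⟨b, hb, rfl⟩
    rw [← h2] at this
    obtain ⟨c, hc, hcb⟩ := this
    have hcb' : c.image e2 = b.image e1 := hcb
    show b.image (e1.trans e2.symm) ∈ B'
    rw [hcomp, ← hcb', hinv]
    exact hc
  · intro hb'
    have : b'.image e2 ∈ O := by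
      rw [← h2]
      exact ⟨b', hb', rfl⟩
    rw [← h1] at this
    obtain ⟨b, hb, hbb⟩ := this
    have hbb' : b.image e1 = b'.image e2 := hbb
    refine ⟨b, hb, ?_⟩
    show b.image (e1.trans e2.symm) = b'
    rw [hcomp, hbb', hinv]

end Cfsg.Agent.Helper29.GU
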