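import Mathlib
import Cfsg.Prelude
import Cfsg.Agent.Helper29.GU.SteinerCode
import Cfsg.Agent.S0355

set_option autoImplicit false

/-! The extended code of a Steiner system S(4,7,23). -/

namespace Cfsg.Agent.Helper29.GU

open Cfsg.Agent.Helper2.Steiner

variable {α : Type*} [Fintype α] [DecidableEq α]

/-- the code spanned by the blocks extended by the new point -/
noncomputable def codeExt (B : Set (Finset α)) : Submodule (ZMod 2) (Option α → ZMod 2) :=
  Submodule.span (ZMod 2) ((fun b => ind (Finset.insertNone b)) '' B)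

omit [Fintype α] in
theorem card_insertNone_inter (c : Finset α) (S : Finset (Option α)) :
    (Finset.insertNone c ∩ S).card = (c ∩ S.eraseNone).card + (if none ∈ S then 1 else 0) := by
  by_cases h : none ∈ S
  · have e : Finset.insertNone c ∩ S = Finset.insertNone (c ∩ S.eraseNone) := by
      ext x
      cases x <;> simp [h]
    rw [e, Finset.card_insertNone, if_pos h]
  · have e : Finset.insertNone c ∩ S = (c ∩ S.eraseNone).map Function.Embedding.some := by
      ext x
      cases x <;> simp [h]
    rw [e, Finset.card_map, if_neg h, add_zero]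

omit [Fintype α] in
theorem card_eq_eraseNone (S : Finset (Option α)) :
    S.card = S.eraseNone.card + (if none ∈ S then 1 else 0) := by
  by_cases h : none ∈ S
  · have e : S = Finset.insertNone S.eraseNone := by
      rw [Finset.insertNone_eraseNone, Finset.insert_eq_of_mem h]
    rw [if_pos h]
    conv_lhs => rw [e]
    rw [Finset.card_insertNone]
  · have e : S = S.eraseNone.map Function.Embedding.some := by
      ext x
      cases x <;> simp [h]
    rw [if_neg h, add_zero]
    conv_lhs => rw [e]
    rw [Finset.card_map]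

theorem alt_term_odd : ∀ m : Fin 8, ¬ Even m.val →
    ∑ i ∈ Finset.range 8, (-2 : ℤ) ^ i * ((m.val.choose i : ℕ) : ℤ) = -1 := by decide

theorem alt_sum_odd {B : Set (Finset α)} (W : Finset α) (hW : W.card ≤ 7)
    (hodd : ∀ c ∈ B, ¬ Even (W ∩ c).card) :
    -((blocks B).card : ℤ) = ∑ i ∈ Finset.range 8,
      (-2 : ℤ) ^ i * ((∑ c ∈ blocks B, ((W ∩ c).card).choose i : ℕ) : ℤ) := by
  have h1 : ∀ c ∈ blocks B, (-1 : ℤ) = ∑ i ∈ Finset.range 8,
      (-2 : ℤ) ^ i * ((((W ∩ c).card).choose i : ℕ) : ℤ) := by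
    intro c hc
    have hlt : (W ∩ c).card < 8 :=
      lt_of_le_of_lt (Finset.card_le_card Finset.inter_subset_left) (by omega)
    exact (alt_term_odd ⟨_, hlt⟩ (hodd c (mem_blocks.1 hc))).symm
  have h0 : -((blocks B).card : ℤ) = ∑ c ∈ blocks B, (-1 : ℤ) := by
    rw [Finset.sum_const]
    simp
  rw [h0, Finset.sum_congr rfl h1, Finset.sum_comm]
  apply Finset.sum_congr rfl
  intro i _
  rw [Nat.cast_sum, Finset.mul_sum]

theorem tab_ineq : ∀ m : Fin 8,
    64 * m.val.choose 6 ≤ 32 * m.val.choose 5 + 128 * m.val.choose 7 := by decide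

theorem M_ineq (B : Set (Finset α)) (W : Finset α) (hW : W.card ≤ 7) :
    64 * ∑ c ∈ blocks B, ((W ∩ c).card).choose 6
      ≤ 32 * ∑ c ∈ blocks B, ((W ∩ c).card).choose 5
        + 128 * ∑ c ∈ blocks B, ((W ∩ c).card).choose 7 := by
  rw [Finset.mul_sum, Finset.mul_sum, Finset.mul_sum, ← Finset.sum_add_distrib]
  apply Finset.sum_le_sum
  intro c _
  have hlt : (W ∩ c).card < 8 :=
    lt_of_le_of_lt (Finset.card_le_card Finset.inter_subset_left) (by omega)
  exact tab_ineq ⟨_, hlt⟩

theorem dual_min_even (hα : Fintype.card α = 23) {B : Set (Finset α)}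
    (hB : Cfsg.IsSteinerSystem 4 7 B) (W : Finset α) (hev : ∀ c ∈ B, Even (W ∩ c).card)
    (hW : W.card ≤ 7) : W.card = 0 := by
  have ha := alt_sum W hW hev
  have m0 := M_eq hB W 0 (by norm_num)
  have m1 := M_eq hB W 1 (by norm_num)
  have m2 := M_eq hB W 2 (by norm_num)
  have m3 := M_eq hB W 3 (by norm_num)
  have m4 := M_eq hB W 4 (by norm_num)
  have m5 := M_le hB W 5 (by norm_num)
  have m6 := M_le hB W 6 (by norm_num)
  have m7 := M_le hB W 7 (by norm_num)
  have mi := M_ineq B W hW
  have hb : (blocks B).card = ∑ c ∈ blocks B, ((W ∩ c).card).choose 0 := by simp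
  rw [hb] at ha
  rw [hα] at m0 m1 m2 m3 m4
  obtain ⟨M, hM⟩ : ∃ M : ℕ → ℕ, ∀ i, M i = ∑ c ∈ blocks B, ((W ∩ c).card).choose i :=
    ⟨_, fun i => rfl⟩
  simp only [← hM] at ha m0 m1 m2 m3 m4 m5 m6 m7 mi
  simp only [Finset.sum_range_succ, Finset.sum_range_zero] at ha
  have c0 : Nat.choose 23 4 = 8855 := by decide
  have c1 : Nat.choose 22 3 = 1540 := by decide
  have c2 : Nat.choose 21 2 = 210 := by decide
  have d0 : Nat.choose 7 4 = 35 := by decide
  have d1 : Nat.choose 6 3 = 20 := by decide
  have d2 : Nat.choose 5 2 = 10 := by decide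
  norm_num at m0 m1 m2 m3 m4
  rw [c0, d0] at m0
  rw [c1, d1] at m1
  rw [c2, d2] at m2
  norm_num at ha
  by_contra hne
  generalize W.card = k at *
  interval_cases k <;> simp [Nat.choose] at m0 m1 m2 m3 m4 m5 m6 m7 <;> omega

theorem dual_min_odd (hα : Fintype.card α = 23) {B : Set (Finset α)}
    (hB : Cfsg.IsSteinerSystem 4 7 B) (W : Finset α) (hodd : ∀ c ∈ B, ¬ Even (W ∩ c).card)
    (hW : W.card ≤ 6) : False := by
  have ha := alt_sum_odd W (by omega) hodd
  have m0 := M_eq hB W 0 (by norm_num)
  have m1 := M_eq hB W 1 (by norm_num)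
  have m2 := M_eq hB W 2 (by norm_num)
  have m3 := M_eq hB W 3 (by norm_num)
  have m4 := M_eq hB W 4 (by norm_num)
  have m5 := M_le hB W 5 (by norm_num)
  have m6 := M_le hB W 6 (by norm_num)
  have m7 := M_le hB W 7 (by norm_num)
  have hb : (blocks B).card = ∑ c ∈ blocks B, ((W ∩ c).card).choose 0 := by simp
  rw [hb] at ha
  rw [hα] at m0 m1 m2 m3 m4
  obtain ⟨M, hM⟩ : ∃ M : ℕ → ℕ, ∀ i, M i = ∑ c ∈ blocks B, ((W ∩ c).card).choose i :=
    ⟨_, fun i => rfl⟩
  simp only [← hM] at ha m0 m1 m2 m3 m4 m5 m6 m7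
  simp only [Finset.sum_range_succ, Finset.sum_range_zero] at ha
  have c0 : Nat.choose 23 4 = 8855 := by decide
  have c1 : Nat.choose 22 3 = 1540 := by decide
  have c2 : Nat.choose 21 2 = 210 := by decide
  have d0 : Nat.choose 7 4 = 35 := by decide
  have d1 : Nat.choose 6 3 = 20 := by decide
  have d2 : Nat.choose 5 2 = 10 := by decide
  norm_num at m0 m1 m2 m3 m4
  rw [c0, d0] at m0
  rw [c1, d1] at m1
  rw [c2, d2] at m2
  norm_num at ha
  generalize W.card = k at *
  interval_cases k <;> simp [Nat.choose] at m0 m1 m2 m3 m4 m5 m6 m7 <;> omega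

theorem isGol_codeExt (hα : Fintype.card α = 23) {B : Set (Finset α)}
    (hB : Cfsg.IsSteinerSystem 4 7 B) : IsGol (codeExt B) := by
  have hα' : Fintype.card (Option α) = 24 := by
    rw [Fintype.card_option, hα]
  have hgen_orth : ∀ u ∈ (fun b => ind (Finset.insertNone b)) '' B,
      ∀ u' ∈ (fun b => ind (Finset.insertNone b)) '' B, ∑ i, u i * u' i = 0 := by
    rintro _ ⟨b, hb, rfl⟩ _ ⟨c, hc, rfl⟩
    rw [dot_eq, supp_ind, supp_ind, ZMod.natCast_eq_zero_iff, card_insertNone_inter,
      Finset.eraseNone_insertNone, if_pos Finset.none_mem_insertNone]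
    by_cases hbc : b = c
    · rw [hbc, Finset.inter_self, hB.1 c hc]
      decide
    · rcases Cfsg.Agent.S0355.result hα hB hb hc hbc with h | h <;> rw [h] <;> decide
  have hgen4 : ∀ u ∈ (fun b => ind (Finset.insertNone b)) '' B, 4 ∣ hammingNorm u := by
    rintro _ ⟨b, hb, rfl⟩
    rw [wt_ind, Finset.card_insertNone, hB.1 b hb]
    decide
  have horth := span_orth hgen_orth
  have h4 := span_four hgen_orth hgen4
  have hdual : ∀ w ∈ (dotB (Option α)).orthogonal (codeExt B), w ≠ 0 → 8 ≤ hammingNorm w := by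
    intro w hw hne
    by_contra hlt
    push Not at hlt
    rw [mem_orth] at hw
    have hev : ∀ c ∈ B, Even ((c ∩ (supp w).eraseNone).card + (if none ∈ supp w then 1 else 0)) := by
      intro c hc
      have := hw (ind (Finset.insertNone c)) (Submodule.subset_span ⟨c, hc, rfl⟩)
      rw [dot_eq, supp_ind, ZMod.natCast_eq_zero_iff, card_insertNone_inter] at this
      exact even_iff_two_dvd.2 this
    have hcard := card_eq_eraseNone (supp w)
    rw [← wt_eq] at hcard
    by_cases hn : none ∈ supp w
    · rw [if_pos hn] at hcard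
      apply dual_min_odd hα hB (supp w).eraseNone _ (by omega)
      intro c hc
      have := hev c hc
      rw [if_pos hn] at this
      rw [Finset.inter_comm]
      intro he
      rw [Nat.even_add_one] at this
      exact this he
    · rw [if_neg hn] at hcard
      have h0 := dual_min_even hα hB (supp w).eraseNone (by
        intro c hc
        have := hev c hc
        rw [if_neg hn, add_zero] at this
        rw [Finset.inter_comm]
        exact this) (by omega)
      apply hne
      rw [← hammingNorm_eq_zero]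
      omega
  have hle : codeExt B ≤ (dotB (Option α)).orthogonal (codeExt B) := by
    intro c hc
    rw [mem_orth]
    intro w hw
    exact horth w hw c hc
  have hfr : Module.finrank (ZMod 2) ((dotB (Option α)).orthogonal (codeExt B))
      = 24 - Module.finrank (ZMod 2) (codeExt B) := by
    have := finrank_orth (codeExt B)
    rw [hα'] at this
    exact this
  have hs := sphere hα' _ hdual
  have hm := Submodule.finrank_mono hle
  have h24 : Module.finrank (ZMod 2) (codeExt B) ≤ 24 := by
    have := Submodule.finrank_le (codeExt B)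
    have h' : Module.finrank (ZMod 2) (Option α → ZMod 2) = 24 := by
      rw [Module.finrank_pi, hα']
    omega
  have key : ∀ (a b : ℕ), b = 24 - a → b ≤ 12 → a ≤ b → a ≤ 24 → a = 12 := by
    intros
    omega
  have hdim := key _ _ hfr hs hm h24
  refine ⟨hα', hdim, horth, h4, fun c hc hne => hdual c (hle hc) hne, ?_⟩
  obtain ⟨s, -, hs4⟩ := Finset.exists_subset_card_eq (s := (Finset.univ : Finset α)) (n := 4)
    (by rw [Finset.card_univ, hα]; norm_num)
  obtain ⟨b, ⟨hb, _⟩, _⟩ := hB.2 s hs4
  exact ⟨ind (Finset.insertNone b), Submodule.subset_span ⟨b, hb, rfl⟩, by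
    rw [wt_ind, Finset.card_insertNone, hB.1 b hb]⟩

end Cfsg.Agent.Helper29.GU
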